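import Mathlib
import Cfsg.Agent.Lib.Helper99.GUSP.Defs
import Cfsg.Agent.Lib.Helper99.GUSP.Asm
import Cfsg.Agent.Lib.Helper99.Symp
import Cfsg.Agent.Lib.Helper94.Symp

/-!
# S5976 (team project GUSP): package [STRUCT]

`K = F + F α` with `α` skew-adjoint and `α * α = a • 1`, `a` a non-square.
-/

set_option autoImplicit false

namespace Cfsg.Agent.Lib.Helper38.GUSP

open Matrix Cfsg.Agent.Lib.Helper99.GUSP

universe u

section tools

variable {F : Type u} [Field F] {d : ℕ}

theorem gsp_two_ne_zero [Fintype F] (hq : Odd (Fintype.card F)) : (2 : F) ≠ 0 := by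
  intro h2
  have : CharP F 2 := by
    refine (CharP.charP_iff_prime_eq_zero Nat.prime_two).mpr ?_
    exact_mod_cast h2
  have h : 2 ∣ Fintype.card F := by
    obtain ⟨m, _, hc⟩ := FiniteField.card F 2
    rw [hc]
    exact dvd_pow_self 2 m.ne_zero
  exact (Nat.not_even_iff_odd.mpr hq) (even_iff_two_dvd.mpr h)

theorem gsp_sub_left (u u' v : SI d → F) :
    Cfsg.sympForm d F (u - u') v = Cfsg.sympForm d F u v - Cfsg.sympForm d F u' v := by
  unfold Cfsg.sympForm
  rw [sub_dotProduct]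

theorem gsp_sub_right (u v v' : SI d → F) :
    Cfsg.sympForm d F u (v - v') = Cfsg.sympForm d F u v - Cfsg.sympForm d F u v' := by
  unfold Cfsg.sympForm
  rw [Matrix.mulVec_sub, dotProduct_sub]

theorem gsp_nondeg (u : SI d → F) (h : ∀ v, Cfsg.sympForm d F u v = 0) : u = 0 :=
  Cfsg.Agent.Lib.Helper99.sympB_nondeg d u
    (fun v => by rw [Cfsg.Agent.Lib.Helper99.sympB_apply]; exact h v)

theorem gsp_mat_eq_zero {A : Matrix (SI d) (SI d) F} (h : ∀ u : SI d → F, A *ᵥ u = 0) :
    A = 0 := by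
  classical
  ext i j
  have h1 := congrFun (h (Pi.single j 1)) i
  simpa using h1

/-- A matrix all of whose values `B (A u) v` vanish is zero. -/
theorem gsp_mat_eq_zero_of_form {A : Matrix (SI d) (SI d) F}
    (h : ∀ u v : SI d → F, Cfsg.sympForm d F (A *ᵥ u) v = 0) : A = 0 :=
  gsp_mat_eq_zero (fun u => gsp_nondeg _ (h u))

end tools

theorem pkgStruct : PkgStruct.{u} := by
  intro F _ _ hodd d K hK hadj hns
  classical
  have h2 : (2 : F) ≠ 0 := gsp_two_ne_zero hodd
  unfold Cfsg.Geo.IsSelfAdjointFor at hns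
  push Not at hns
  obtain ⟨k0, hk0, u0, v0, hne⟩ := hns
  obtain ⟨k0', hk0', hadj0⟩ := hadj k0 hk0
  have hadj0' : ∀ u v : SI d → F,
      Cfsg.sympForm d F (k0' *ᵥ u) v = Cfsg.sympForm d F u (k0 *ᵥ v) := by
    intro u v
    rw [Cfsg.Agent.Lib.Helper94.sf_swap, ← hadj0, Cfsg.Agent.Lib.Helper94.sf_swap d (k0 *ᵥ v) u,
      neg_neg]
  obtain ⟨α, hαdef⟩ : ∃ α : Matrix (SI d) (SI d) F, α = k0 - k0' := ⟨_, rfl⟩
  have hαK : α ∈ K := by rw [hαdef]; exact K.sub_mem hk0 hk0'
  have hskew : ∀ u v : SI d → F,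
      Cfsg.sympForm d F (α *ᵥ u) v = - Cfsg.sympForm d F u (α *ᵥ v) := by
    intro u v
    rw [hαdef, Matrix.sub_mulVec, Matrix.sub_mulVec, gsp_sub_left, gsp_sub_right, hadj0, hadj0']
    ring
  have hB : ¬ ∀ u v : SI d → F, Cfsg.sympForm d F u v = 0 := fun h => hne (by rw [h, h])
  have hα0 : α ≠ 0 := by
    intro h
    have hk : k0 = k0' := sub_eq_zero.mp (hαdef ▸ h)
    apply hne
    rw [hadj0, ← hk]
  have hnsc : ∀ c : F, α ≠ c • (1 : Matrix (SI d) (SI d) F) := by
    intro c hc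
    have hc0 : c ≠ 0 := by
      rintro rfl
      exact hα0 (by rw [hc, zero_smul])
    apply hB
    intro u v
    have h := hskew u v
    rw [hc, Matrix.smul_mulVec, Matrix.smul_mulVec, Matrix.one_mulVec, Matrix.one_mulVec,
      Cfsg.Agent.Lib.Helper94.sf_smul_left, Cfsg.Agent.Lib.Helper94.sf_smul_right] at h
    have h3 : (2 * c) * Cfsg.sympForm d F u v = 0 := by linear_combination h
    rcases mul_eq_zero.mp h3 with h4 | h4
    · exact absurd h4 (mul_ne_zero h2 hc0)
    · exact h4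
  -- `K` is spanned by `1` and `α`
  have hfin : Module.finrank F K = 2 := hK.finrank_eq
  have hFD : Module.Finite F K := Module.finite_of_finrank_pos (by rw [hfin]; norm_num)
  have hone : (⟨1, K.one_mem⟩ : K) ≠ 0 := by
    intro h
    have h1 : (1 : Matrix (SI d) (SI d) F) = 0 := congrArg Subtype.val h
    exact hα0 (by rw [← Matrix.mul_one α, h1, Matrix.mul_zero])
  have hli : LinearIndependent F ![(⟨1, K.one_mem⟩ : K), ⟨α, hαK⟩] := by
    rw [LinearIndependent.pair_iff' hone]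
    intro c hc
    have h1 : c • (1 : Matrix (SI d) (SI d) F) = α := congrArg Subtype.val hc
    exact hnsc c h1.symm
  have hspan := hli.span_eq_top_of_card_eq_finrank' (by rw [hfin]; rfl)
  have hmem : ∀ k : Matrix (SI d) (SI d) F, k ∈ K →
      ∃ x y : F, k = x • (1 : Matrix (SI d) (SI d) F) + y • α := by
    intro k hk
    have hk' : (⟨k, hk⟩ : K) ∈
        Submodule.span F (Set.range ![(⟨1, K.one_mem⟩ : K), ⟨α, hαK⟩]) := by
      rw [hspan]; exact Submodule.mem_top
    rw [Matrix.range_cons_cons_empty, Submodule.mem_span_pair] at hk'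
    obtain ⟨x, y, hxy⟩ := hk'
    refine ⟨x, y, ?_⟩
    have h1 := congrArg Subtype.val hxy
    exact h1.symm
  obtain ⟨x, y, hxy⟩ := hmem (α * α) (K.mul_mem hαK hαK)
  have hsa : ∀ u v : SI d → F,
      Cfsg.sympForm d F ((α * α) *ᵥ u) v = Cfsg.sympForm d F u ((α * α) *ᵥ v) := by
    intro u v
    rw [← Matrix.mulVec_mulVec, ← Matrix.mulVec_mulVec, hskew]
    have h1 := hskew u (α *ᵥ v)
    rw [h1]
    ring
  have hy : y = 0 := by
    by_contra hy
    apply hα0
    apply gsp_mat_eq_zero_of_form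
    intro u v
    have h := hsa u v
    rw [hxy, Matrix.add_mulVec, Matrix.add_mulVec, Matrix.smul_mulVec, Matrix.smul_mulVec,
      Matrix.smul_mulVec, Matrix.smul_mulVec, Matrix.one_mulVec, Matrix.one_mulVec,
      Cfsg.Agent.Lib.Helper94.sf_add_left, Cfsg.Agent.Lib.Helper94.sf_add_right,
      Cfsg.Agent.Lib.Helper94.sf_smul_left, Cfsg.Agent.Lib.Helper94.sf_smul_left,
      Cfsg.Agent.Lib.Helper94.sf_smul_right, Cfsg.Agent.Lib.Helper94.sf_smul_right] at h
    have h' := hskew u v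
    have h3 : (2 * y) * Cfsg.sympForm d F (α *ᵥ u) v = 0 := by linear_combination h + y * h'
    rcases mul_eq_zero.mp h3 with h4 | h4
    · exact absurd h4 (mul_ne_zero h2 hy)
    · exact h4
  have hαα : α * α = x • (1 : Matrix (SI d) (SI d) F) := by
    rw [hxy, hy, zero_smul, add_zero]
  have hnsq : ¬ IsSquare x := by
    rintro ⟨c, hc⟩
    have hprod : (α - c • (1 : Matrix (SI d) (SI d) F)) * (α + c • (1 : Matrix (SI d) (SI d) F))
        = 0 := by
      simp only [sub_mul, mul_add, Matrix.smul_mul, Matrix.mul_smul, Matrix.one_mul,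
        Matrix.mul_one, smul_smul]
      rw [hαα, hc]
      abel
    have hmK : α - c • (1 : Matrix (SI d) (SI d) F) ∈ K :=
      K.sub_mem hαK (K.smul_mem K.one_mem c)
    obtain ⟨w, hwK, hw⟩ := hK.inv _ hmK (sub_ne_zero.mpr (hnsc c))
    have hw' : w * (α - c • (1 : Matrix (SI d) (SI d) F)) = 1 := by
      rw [hK.comm w hwK _ hmK]; exact hw
    have h0 : α + c • (1 : Matrix (SI d) (SI d) F) = 0 := by
      calc α + c • (1 : Matrix (SI d) (SI d) F)
          = (w * (α - c • (1 : Matrix (SI d) (SI d) F))) *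
              (α + c • (1 : Matrix (SI d) (SI d) F)) := by rw [hw', Matrix.one_mul]
        _ = w * ((α - c • (1 : Matrix (SI d) (SI d) F)) *
              (α + c • (1 : Matrix (SI d) (SI d) F))) := Matrix.mul_assoc _ _ _
        _ = 0 := by rw [hprod, Matrix.mul_zero]
    exact hnsc (-c) (by rw [neg_smul]; exact eq_neg_of_add_eq_zero_left h0)
  refine ⟨x, α, hnsq, ⟨hαα, hskew⟩, fun k => ⟨fun hk => hmem k hk, ?_⟩⟩
  rintro ⟨s, t, rfl⟩
  exact K.add_mem (K.smul_mem K.one_mem s) (K.smul_mem hαK t)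

end Cfsg.Agent.Lib.Helper38.GUSP
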