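import Mathlib
import Cfsg.Agent.Lib.Helper99.GUSP.Defs
import Cfsg.Agent.Lib.Helper99.GUSP.Asm
import Cfsg.Agent.Lib.Helper94.Symp
import Cfsg.Agent.Lib.Helper40.Symp
import Cfsg.Agent.Lib.Helper38.GUSP.Struct

/-!
# S5976 (team project GUSP): package [NORM]

A symplectic `g` normalizes `K = F + F α` iff `g α = ± α g`.
-/

set_option autoImplicit false

namespace Cfsg.Agent.Lib.Helper38.GUSP

open Matrix Cfsg.Agent.Lib.Helper99.GUSP

universe u

theorem pkgNorm : PkgNorm.{u} := by
  intro F _ _ hodd d hd K a α ha hα hK g hg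
  classical
  have h2 : (2 : F) ≠ 0 := gsp_two_ne_zero hodd
  have ha0 : a ≠ 0 := by
    rintro rfl
    exact ha ⟨0, by simp⟩
  obtain ⟨G, hG⟩ : ∃ G : Matrix (SI d) (SI d) F, G = (g : Matrix (SI d) (SI d) F) := ⟨_, rfl⟩
  obtain ⟨G', hG'⟩ : ∃ G' : Matrix (SI d) (SI d) F,
      G' = ((g⁻¹ : GL (SI d) F) : Matrix (SI d) (SI d) F) := ⟨_, rfl⟩
  have h1 : G' * G = 1 := by rw [hG, hG']; exact gl_inv_mul g
  have h1' : G * G' = 1 := by rw [hG, hG']; exact gl_mul_inv g
  have hαK : α ∈ K := (hK α).mpr ⟨0, 1, by simp⟩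
  show (∀ k : Matrix (SI d) (SI d) F, k ∈ K ↔
      (g : Matrix (SI d) (SI d) F) * k * ((g⁻¹ : GL (SI d) F) : Matrix (SI d) (SI d) F) ∈ K) ↔
      PM (g : Matrix (SI d) (SI d) F) α
  rw [← hG, ← hG']
  obtain ⟨i0, hi0⟩ : ∃ i0 : SI d, i0 = Sum.inl ⟨0, hd⟩ := ⟨_, rfl⟩
  constructor
  · intro hn
    obtain ⟨x, y, hxy⟩ := (hK _).mp ((hn α).mp hαK)
    have hconj : IsAlpha d a (G * α * G') := by
      rw [hG, hG']; exact isAlpha_conj hα g hg
    have hx : x = 0 := by
      have hu : (Pi.single i0 1 : SI d → F) ≠ 0 := by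
        intro h
        have h3 := congrFun h i0
        simp at h3
      obtain ⟨v, hv⟩ := Cfsg.Agent.Lib.Helper40.exists_sympForm_eq_one d _ hu
      have h := hconj.2 (Pi.single i0 1) v
      rw [hxy, Matrix.add_mulVec, Matrix.add_mulVec, Matrix.smul_mulVec, Matrix.smul_mulVec,
        Matrix.smul_mulVec, Matrix.smul_mulVec, Matrix.one_mulVec, Matrix.one_mulVec,
        Cfsg.Agent.Lib.Helper94.sf_add_left, Cfsg.Agent.Lib.Helper94.sf_add_right,
        Cfsg.Agent.Lib.Helper94.sf_smul_left, Cfsg.Agent.Lib.Helper94.sf_smul_left,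
        Cfsg.Agent.Lib.Helper94.sf_smul_right, Cfsg.Agent.Lib.Helper94.sf_smul_right, hv] at h
      have h' := hα.2 (Pi.single i0 1) v
      have h3 : 2 * x = 0 := by linear_combination h - y * h'
      rcases mul_eq_zero.mp h3 with h4 | h4
      · exact absurd h4 h2
      · exact h4
    have hcy : G * α * G' = y • α := by rw [hxy, hx, zero_smul, zero_add]
    have hyy : y * y = 1 := by
      have h := hconj.1
      rw [hcy, Matrix.smul_mul, Matrix.mul_smul, smul_smul, hα.1, smul_smul] at h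
      have h3 := congrFun (congrFun h i0) i0
      simp only [Matrix.smul_apply, Matrix.one_apply_eq, smul_eq_mul, mul_one] at h3
      have h4 : (y * y - 1) * a = 0 := by linear_combination h3
      rcases mul_eq_zero.mp h4 with h5 | h5
      · linear_combination h5
      · exact absurd h5 ha0
    have hGα : G * α = y • (α * G) := by
      calc G * α = G * α * (G' * G) := by rw [h1, Matrix.mul_one]
        _ = (G * α * G') * G := by simp only [Matrix.mul_assoc]
        _ = y • (α * G) := by rw [hcy, Matrix.smul_mul]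
    rcases mul_self_eq_one_iff.mp hyy with rfl | rfl
    · left; rw [hGα, one_smul]
    · right; rw [hGα, neg_smul, one_smul]
  · intro hpm
    obtain ⟨ε, hε, hGα⟩ : ∃ ε : F, ε * ε = 1 ∧ G * α = ε • (α * G) := by
      rcases hpm with h | h
      · exact ⟨1, by ring, by rw [h, one_smul]⟩
      · exact ⟨-1, by ring, by rw [h, neg_smul, one_smul]⟩
    have hc1 : G * α * G' = ε • α := by
      rw [hGα, Matrix.smul_mul, Matrix.mul_assoc, h1', Matrix.mul_one]
    have hc2 : G' * α * G = ε • α := by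
      have h3 : α * G = ε • (G * α) := by rw [hGα, smul_smul, hε, one_smul]
      rw [Matrix.mul_assoc, h3, Matrix.mul_smul, ← Matrix.mul_assoc, h1, Matrix.one_mul]
    intro k
    constructor
    · intro hk
      obtain ⟨x, y, rfl⟩ := (hK k).mp hk
      apply (hK _).mpr
      refine ⟨x, y * ε, ?_⟩
      rw [Matrix.mul_add, Matrix.add_mul, Matrix.mul_smul, Matrix.smul_mul, Matrix.mul_one, h1',
        Matrix.mul_smul, Matrix.smul_mul, hc1, smul_smul]
    · intro hk
      obtain ⟨x, y, hxy⟩ := (hK _).mp hk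
      apply (hK _).mpr
      refine ⟨x, y * ε, ?_⟩
      have h3 : k = G' * (G * k * G') * G := by
        calc k = (G' * G) * k * (G' * G) := by rw [h1, Matrix.one_mul, Matrix.mul_one]
          _ = G' * (G * k * G') * G := by simp only [Matrix.mul_assoc]
      rw [h3, hxy, Matrix.mul_add, Matrix.add_mul, Matrix.mul_smul, Matrix.smul_mul,
        Matrix.mul_one, h1, Matrix.mul_smul, Matrix.smul_mul, hc2, smul_smul]

end Cfsg.Agent.Lib.Helper38.GUSP
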